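import Cfsg.Agent.H392.KKL.X2a
import Cfsg.Agent.H40.KKL.XOne
import Cfsg.Agent.H613.KS.Defs

/-!
# S4577, `E₈(q)`, case AAB: the linear character of `H_t` is not trivial (helper750, plan of helper241)

* `SI t J` : `t` is an involution, `J ≅ SL₂(q)` with centre `⟨t⟩`, and `C(t)` acts on `J` through `GL₂(q)`;
* `exists_w` : an involution acting nontrivially on `J` inverts an element `w` of `J` with `w² = t`;
* `F1` : the index of `C_D(J_t)` in `D` is at most two;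
* `kill_one` : no configuration `CfgB D x θ` such that `θ` is trivial on `C_{J_t}(D)`, if `D` does not centralise `J_t`;
* `si_E8` : `SI` for the classical involutions of `E₈(q)`.
-/

set_option autoImplicit false
set_option linter.unusedSectionVars false

namespace Cfsg.Agent.H750.KS

open Cfsg
open Cfsg.Agent.H613.KKL (CI)
open Cfsg.Agent.H392.KKL (Act cg cg_eq cg_coe cg_mul cg_one cg_trivial cg_eq_iff)
open Cfsg.Agent.H40.KKL (Cz Sc sc_iff center_iff trace_zero)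
open scoped MatrixGroups

/-! ## 2 × 2 matrices -/

section mat

variable {F : Type} [Field F] [Fintype F]

/-- a trace zero matrix anticommutes with some matrix of determinant one and trace zero -/
theorem exists_anti (h2 : (2 : F) ≠ 0) {a b c : F} (h : a * a + b * c ≠ 0) :
    ∃ x y z : F, -(x * x) - y * z = 1 ∧ 2 * (a * x) + b * z + c * y = 0 := by
  by_cases hb : b = 0
  · subst hb
    rw [zero_mul, add_zero] at h
    have ha : a ≠ 0 := fun h' => h (by rw [h', mul_zero])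
    by_cases hc : c = 0
    · subst hc
      exact ⟨0, 1, -1, by ring, by ring⟩
    · refine ⟨1, -(2 * a) / c, c / a, ?_, ?_⟩
      · field_simp
        ring
      · field_simp
        ring
  · -- `U ^ 2 + b ^ 2 = Δ y ^ 2`
    have hodd : Fintype.card F % 2 = 1 :=
      Nat.odd_iff.1 (Cfsg.Agent.H392.KKL.odd_card h2)
    obtain ⟨U, y, hU⟩ := FiniteField.exists_root_sum_quadratic (R := F)
      (f := Polynomial.X ^ 2 + Polynomial.C (b * b)) (g := Polynomial.C (-(a * a + b * c)) * Polynomial.X ^ 2)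
      (Polynomial.degree_X_pow_add_C (by norm_num) _)
      (Polynomial.degree_C_mul_X_pow 2 (neg_ne_zero.2 h)) hodd
    simp only [Polynomial.eval_add, Polynomial.eval_pow, Polynomial.eval_X, Polynomial.eval_C,
      Polynomial.eval_mul] at hU
    refine ⟨(U + a * y) / b, y, -(2 * (a * ((U + a * y) / b)) + c * y) / b, ?_, ?_⟩
    · field_simp
      linear_combination (-1 : F) * hU
    · field_simp
      ring

/-- an element of `GL₂(F)` whose square is central, not central itself, inverts an element `w ∈ SL₂(F)` with `w² = -1` -/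
theorem exists_w_mat (h2 : (2 : F) ≠ 0) {g : GL (Fin 2) F} (hg : ¬ Sc (g : Matrix (Fin 2) (Fin 2) F))
    (hgg : Sc ((g : Matrix (Fin 2) (Fin 2) F) * (g : Matrix (Fin 2) (Fin 2) F))) :
    ∃ w : SL(2, F), w * w = -1 ∧ cg g w = -1 * w := by
  set A : Matrix (Fin 2) (Fin 2) F := (g : Matrix (Fin 2) (Fin 2) F) with hA
  have htr := trace_zero hg hgg
  have hdet : A.det ≠ 0 := (Matrix.isUnits_det_units g).ne_zero
  rw [Matrix.det_fin_two] at hdet
  have h : A 0 0 * A 0 0 + A 0 1 * A 1 0 ≠ 0 := by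
    intro h'
    apply hdet
    linear_combination A 0 0 * htr - h'
  obtain ⟨x, y, z, h3, h4⟩ := exists_anti h2 h
  have h1 : A 1 1 = -A 0 0 := by linear_combination htr
  refine ⟨⟨!![x, y; z, -x], by rw [Matrix.det_fin_two_of]; linear_combination h3⟩, ?_, ?_⟩
  · apply Subtype.ext
    show !![x, y; z, -x] * !![x, y; z, -x] = -1
    ext i j; fin_cases i <;> fin_cases j <;> simp
    · linear_combination -h3
    · ring
    · ring
    · linear_combination -h3
  · apply cg_eq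
    show A * !![x, y; z, -x] = (-1 * !![x, y; z, -x]) * A
    ext i j; fin_cases i <;> fin_cases j <;> simp [Matrix.mul_apply, Fin.sum_univ_two]
    · linear_combination h4
    · rw [h1]; ring
    · rw [h1]; ring
    · rw [h1]; linear_combination h4

end mat

/-! ## fundamental subgroups -/

section SI

variable {K : Type*} [Group K]

/-- `t` is a classical involution with the fundamental subgroup `J ≅ SL₂(F)`, on which `C(t)` acts through `GL₂(F)` -/
def SI (t : K) (J : Subgroup K) : Prop :=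
  ∃ (F : Type) (_ : Field F) (_ : Fintype F) (Q : SL(2, F) →* K), (2 : F) ≠ 0 ∧ Function.Injective Q ∧ Q (-1) = t ∧
    Q.range = J ∧ ∀ c : K, c * t = t * c → Act Q c

theorem SI.ci {t : K} {J : Subgroup K} (h : SI t J) : CI t J := by
  obtain ⟨F, _, _, Q, h2, hQ, rfl, rfl, hC⟩ := h
  refine Cfsg.Agent.H392.KKL.ci_of_hom h2 Q (fun h1 => ?_) hC
  have h3 : (-1 : SL(2, F)) = 1 := hQ (by rw [h1, map_one])
  have h4 := congrFun (congrFun (congrArg Subtype.val h3) 0) 0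
  have h5 : (-1 : F) = 1 := by simpa using h4
  apply h2
  linear_combination -h5

theorem SI.conj {t : K} {J : Subgroup K} (h : SI t J) (y : K) :
    SI (y * t * y⁻¹) (J.map (MulAut.conj y).toMonoidHom) := by
  obtain ⟨F, i1, i2, Q, h2, hQ, rfl, rfl, hC⟩ := h
  refine ⟨F, i1, i2, (MulAut.conj y).toMonoidHom.comp Q, h2, (MulAut.conj y).injective.comp hQ, rfl,
    MonoidHom.range_comp _ _, ?_⟩
  intro c hc
  have h1 : y⁻¹ * c * y * Q (-1) = Q (-1) * (y⁻¹ * c * y) := by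
    calc _ = y⁻¹ * (c * (y * Q (-1) * y⁻¹)) * y := by group
      _ = _ := by rw [hc]; group
  obtain ⟨g, hg⟩ := hC _ h1
  refine ⟨g, fun s => ?_⟩
  show c * (y * Q s * y⁻¹) * c⁻¹ = y * Q (cg g s) * y⁻¹
  rw [← hg]
  group

/-- **an element acting as an involution on `J` inverts an element of order four** -/
theorem exists_w {t : K} {J : Subgroup K} (h : SI t J) {d : K} (hd : d * t = t * d) (hdd : Cz J (d * d))
    (hnd : ¬ Cz J d) : ∃ w ∈ J, w * w = t ∧ d * w * d⁻¹ = t * w := by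
  obtain ⟨F, _, _, Q, h2, hQ, rfl, rfl, hC⟩ := h
  obtain ⟨g, hg⟩ := hC d hd
  have hng : ¬ Sc (g : Matrix (Fin 2) (Fin 2) F) := by
    intro h1
    apply hnd
    rintro _ ⟨s, rfl⟩
    have h3 := hg s
    rw [cg_trivial.2 (center_iff.2 h1) s] at h3
    exact mul_inv_eq_iff_eq_mul.1 h3
  have hgg : Sc ((g : Matrix (Fin 2) (Fin 2) F) * (g : Matrix (Fin 2) (Fin 2) F)) := by
    have h1 : ((g * g : GL (Fin 2) F) : Matrix (Fin 2) (Fin 2) F) =
      (g : Matrix (Fin 2) (Fin 2) F) * (g : Matrix (Fin 2) (Fin 2) F) := rfl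
    rw [← h1, ← center_iff, ← cg_trivial]
    intro s
    apply hQ
    rw [cg_mul, ← hg, ← hg]
    have h3 := hdd (Q s) ⟨s, rfl⟩
    calc d * (d * Q s * d⁻¹) * d⁻¹ = d * d * Q s * (d⁻¹ * d⁻¹) := by group
      _ = Q s := by rw [h3]; group
  obtain ⟨w, hw1, hw2⟩ := exists_w_mat h2 hng hgg
  exact ⟨Q w, ⟨w, rfl⟩, by rw [← map_mul, hw1], by rw [hg, hw2, map_mul]⟩

end SI

/-! ## the configuration -/

section conf

open Cfsg.Agent.H613.KS

variable {K : Type*} [Group K] {D : Subgroup K} {x : K}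

theorem comm_D (hc : E16 D) {d e : K} (hd : d ∈ D) (he : e ∈ D) : d * e = e * d := by
  have h1 := hc.inv _ (mul_mem hd he)
  have h2 := hc.inv d hd
  have h3 := hc.inv e he
  calc d * e = (d * e)⁻¹ := eq_inv_of_mul_eq_one_left h1
    _ = e⁻¹ * d⁻¹ := mul_inv_rev _ _
    _ = e * d := by rw [inv_eq_of_mul_eq_one_left h2, inv_eq_of_mul_eq_one_left h3]

/-- `x` does not centralize `J_t` -/
theorem not_cz_x (hc : Cfg D x) {t : K} (ht : t ∈ D) (ht1 : t ≠ 1) {J : Subgroup K} (hJ : CI t J) : ¬ Cz J x := by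
  intro h
  obtain ⟨i, mi, j, mj, hi, hj, hij⟩ := hJ.q8
  have h4 : i ^ 4 = 1 := by
    have : i ^ 4 = (i * i) * (i * i) := by simp only [pow_succ, pow_zero, one_mul, mul_assoc]
    rw [this, hi, hc.e16.inv t ht]
  have hQ : IsPGroup 2 ↥(Subgroup.zpowers i) := by
    rintro ⟨_, n, rfl⟩
    refine ⟨2, Subtype.ext ?_⟩
    show (i ^ n) ^ 2 ^ 2 = 1
    have h5 : (2 : ℕ) ^ 2 = 4 := rfl
    rw [h5, ← zpow_natCast, ← zpow_mul, mul_comm, zpow_mul, zpow_natCast, h4, one_zpow]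
  obtain ⟨c, hcx, hcQ⟩ := hc.syl (Subgroup.zpowers i) hQ (by
    rintro _ ⟨n, rfl⟩
    have h1 : Commute x i := h i mi
    exact (h1.symm.zpow_left n).eq)
  have h5 := hc.e16.inv _ (hcQ i (Subgroup.mem_zpowers i))
  apply ht1
  rw [← hi]
  calc i * i = c⁻¹ * (c * i * c⁻¹ * (c * i * c⁻¹)) * c := by group
    _ = 1 := by rw [h5]; group

/-- the index of `C_D(J_t)` in `D` is at most two -/
theorem F1 (hc : Cfg D x) {t : K} (ht : t ∈ D) (ht1 : t ≠ 1) {J : Subgroup K} (hJ : CI t J) {d e : K} (hd : d ∈ D)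
    (he : e ∈ D) : Cz J d ∨ Cz J e ∨ Cz J (d * e) := by
  have hx := not_cz_x hc ht ht1 hJ
  obtain ⟨F, _, _, f, h2, hf⟩ := hJ.act
  have mem : ∀ {d}, d ∈ D → d ∈ Subgroup.centralizer ({t} : Set K) := fun hd =>
    Subgroup.mem_centralizer_singleton_iff.2 (comm_D hc.e16 hd ht)
  have mx : x ∈ Subgroup.centralizer ({t} : Set K) := Subgroup.mem_centralizer_singleton_iff.2 (hc.comm t ht).symm
  have hfx : f ⟨x, mx⟩ ≠ 1 := fun h => hx ((hf _).1 h)
  have hodd : Odd (orderOf (f ⟨x, mx⟩)) := by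
    refine hc.odd.of_dvd_nat ?_
    have h1 : orderOf (f ⟨x, mx⟩) ∣ orderOf (⟨x, mx⟩ : ↥(Subgroup.centralizer ({t} : Set K))) := orderOf_map_dvd f _
    rwa [Subgroup.orderOf_mk] at h1
  have hcm : ∀ {d} (hd : d ∈ D), f ⟨d, mem hd⟩ * f ⟨x, mx⟩ = f ⟨x, mx⟩ * f ⟨d, mem hd⟩ := by
    intro d hd
    rw [← map_mul, ← map_mul]
    exact congrArg f (Subtype.ext (hc.comm d hd))
  have hsq : ∀ {d} (hd : d ∈ D), f ⟨d, mem hd⟩ * f ⟨d, mem hd⟩ = 1 := by
    intro d hd
    rw [← map_mul, ← map_one f]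
    exact congrArg f (Subtype.ext (hc.e16.inv d hd))
  rcases Cfsg.Agent.H40.KKL.pgl_inv h2 hfx hodd (hcm hd) (hcm he) (hsq hd) (hsq he) with h | h | h
  · exact Or.inl ((hf _).1 h)
  · exact Or.inr (Or.inl ((hf _).1 h))
  · right; right
    rw [← map_mul] at h
    exact (hf _).1 h

/-- **`w_t`.** If `D` does not centralise `J_t`, there is an element `w ∈ J_t` of order four with `w² = t`, such that every
`e ∈ D` centralises or inverts `w`; not all of them centralise it; `c⁻¹ w c w⁻¹ ∈ C_{J_t}(D)` for all `c ∈ C(D)`. -/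
theorem exists_wt (hc : Cfg D x) {t : K} (ht : t ∈ D) (ht1 : t ≠ 1) {J : Subgroup K} (hJ : SI t J)
    (hne : ∃ d ∈ D, ¬ Cz J d) : ∃ w ∈ J, w * w = t ∧ (∃ d ∈ D, w * d ≠ d * w) ∧
      (∀ e ∈ D, e * w * e⁻¹ = w ∨ e * w * e⁻¹ = t * w) ∧ (∀ e : K, w * e * w⁻¹ ∈ D ↔ e ∈ D) ∧ orderOf w = 2 ^ 2 ∧
      ∀ c : K, (∀ d ∈ D, c * d = d * c) → c⁻¹ * w * c * w⁻¹ ∈ J ∧
        ∀ d ∈ D, c⁻¹ * w * c * w⁻¹ * d = d * (c⁻¹ * w * c * w⁻¹) := by
  obtain ⟨d, hd, hnd⟩ := hne
  have hCI := hJ.ci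
  have hdt := comm_D hc.e16 hd ht
  obtain ⟨w, hwJ, hww, hdw⟩ := exists_w hJ hdt (by rw [hc.e16.inv d hd]; exact Cz.one J) hnd
  have hct := Cfsg.Agent.H40.KKL.ci_cz hCI
  have hwt : w * t = t * w := (hct w hwJ).symm
  have htt := hc.e16.inv t ht
  have hdd := hc.e16.inv d hd
  have hdinv : d⁻¹ = d := inv_eq_of_mul_eq_one_left hdd
  -- every element of `D`
  have key : ∀ e ∈ D, e * w * e⁻¹ = w ∨ e * w * e⁻¹ = t * w := by
    intro e he
    rcases F1 hc ht ht1 hCI hd he with h | h | h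
    · exact absurd h hnd
    · left; rw [h w hwJ, mul_inv_cancel_right]
    · right
      have h1 := h w hwJ
      have h3 : e * w = d * w * (d * e) := by
        calc e * w = d * (d * e * w) := by rw [← mul_assoc, ← mul_assoc, hdd, one_mul]
          _ = d * w * (d * e) := by rw [h1]; group
      have h4 : d * w = t * w * d := by rw [← hdw]; group
      rw [h3, h4]
      calc t * w * d * (d * e) * e⁻¹ = t * w * (d * d) := by group
        _ = t * w := by rw [hdd, mul_one]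
  have hD : ∀ e ∈ D, w * e * w⁻¹ ∈ D := by
    intro e he
    have h1 : w * e * w⁻¹ = e * (e⁻¹ * w * e⁻¹⁻¹) * w⁻¹ := by group
    rcases key _ (inv_mem he) with h3 | h3
    · rw [h1, h3, mul_inv_cancel_right]; exact he
    · rw [h1, h3]
      have h4 : e * (t * w) * w⁻¹ = e * t := by group
      rw [h4]
      exact mul_mem he ht
  have hD' : ∀ e ∈ D, w⁻¹ * e * w ∈ D := by
    intro e he
    have h1 := hD e he
    -- `w⁻¹ = t w`
    have h3 : w⁻¹ = t * w := by
      rw [inv_eq_iff_mul_eq_one, ← mul_assoc, hwt, mul_assoc, hww, htt]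
    have h4 : w⁻¹ * e * w = t * (w * e * w⁻¹) * t := by
      have h5 : w = t * w⁻¹ := by
        rw [h3, ← mul_assoc, htt, one_mul]
      calc w⁻¹ * e * w = (t * w) * e * w := by rw [h3]
        _ = (t * w) * e * (t * w⁻¹) := by rw [← h5]
        _ = t * (w * (e * t) * w⁻¹) := by group
        _ = t * (w * (t * e) * w⁻¹) := by rw [comm_D hc.e16 he ht]
        _ = t * ((w * t) * e * w⁻¹) := by group
        _ = t * ((t * w) * e * w⁻¹) := by rw [hwt]
        _ = (t * t) * (w * e * w⁻¹) := by group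
        _ = (w * e * w⁻¹) * (t * t) := by rw [htt, one_mul, mul_one]
        _ = (w * e * w⁻¹ * t) * t := by group
        _ = t * (w * e * w⁻¹) * t := by rw [comm_D hc.e16 h1 ht]
    rw [h4]
    exact mul_mem (mul_mem ht h1) ht
  refine ⟨w, hwJ, hww, ⟨d, hd, ?_⟩, key, ?_, ?_, ?_⟩
  · intro h
    apply ht1
    have h1 : d * w * d⁻¹ = w := by rw [← h]; group
    rw [h1] at hdw
    exact (mul_eq_right.1 hdw.symm)
  · intro e
    refine ⟨fun h => ?_, hD e⟩
    have h1 := hD' _ h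
    have h3 : w⁻¹ * (w * e * w⁻¹) * w = e := by group
    rwa [h3] at h1
  · have : Fact (Nat.Prime 2) := ⟨Nat.prime_two⟩
    refine orderOf_eq_prime_pow (p := 2) (n := 1) ?_ ?_
    · rw [pow_one, pow_two, hww]; exact ht1
    · have : (2 : ℕ) ^ (1 + 1) = 2 * 2 := rfl
      rw [this, pow_mul, pow_two w, hww, pow_two, htt]
  · intro c hcD
    have hcJ : ∀ a ∈ J, c * a * c⁻¹ ∈ J := hCI.norm c (hcD t ht)
    have hc't : c⁻¹ * t = t * c⁻¹ := by
      have h1 : Commute c t := hcD t ht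
      exact h1.inv_left.eq
    have h1 : c⁻¹ * w * c ∈ J := by
      have := hCI.norm c⁻¹ hc't w hwJ
      rwa [inv_inv] at this
    refine ⟨mul_mem h1 (inv_mem hwJ), ?_⟩
    intro e he
    have hce : c * e = e * c := hcD e he
    have hce' : e * c⁻¹ = c⁻¹ * e := by
      have h3 : Commute c e := hce
      exact h3.inv_left.eq.symm
    -- `e (c⁻¹ w c w⁻¹) e⁻¹ = c⁻¹ (e w e⁻¹) c (e w e⁻¹)⁻¹`
    have h3 : e * (c⁻¹ * w * c * w⁻¹) * e⁻¹ = c⁻¹ * (e * w * e⁻¹) * c * (e * w * e⁻¹)⁻¹ := by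
      calc e * (c⁻¹ * w * c * w⁻¹) * e⁻¹ = (e * c⁻¹) * w * c * w⁻¹ * e⁻¹ := by group
        _ = (c⁻¹ * e) * w * c * w⁻¹ * e⁻¹ := by rw [hce']
        _ = c⁻¹ * (e * w * e⁻¹) * (e * c) * w⁻¹ * e⁻¹ := by group
        _ = c⁻¹ * (e * w * e⁻¹) * (c * e) * w⁻¹ * e⁻¹ := by rw [hce]
        _ = _ := by group
    have h4 : e * (c⁻¹ * w * c * w⁻¹) * e⁻¹ = c⁻¹ * w * c * w⁻¹ := by
      rcases key e he with h5 | h5
      · rw [h3, h5]
      · rw [h3, h5]
        calc c⁻¹ * (t * w) * c * (t * w)⁻¹ = (c⁻¹ * t) * w * c * w⁻¹ * t⁻¹ := by group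
          _ = t * (c⁻¹ * w * c * w⁻¹) * t⁻¹ := by rw [hc't]; group
          _ = (c⁻¹ * w * c * w⁻¹) * t * t⁻¹ := by
            rw [hct _ (mul_mem h1 (inv_mem hwJ))]
          _ = _ := by group
    calc c⁻¹ * w * c * w⁻¹ * e = e * (c⁻¹ * w * c * w⁻¹) * e⁻¹ * e := by rw [h4]
      _ = _ := by group

/-- **kill_one** : no configuration such that `D` does not centralise `J_t` and `θ` is trivial on `C_{J_t}(D)`. -/
theorem kill_one [Finite K] {θ : IrrCharacter ↥(Subgroup.centralizer (D : Set K))} (hc : CfgB D x θ) {t : K}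
    (ht : t ∈ D) (ht1 : t ≠ 1) {J : Subgroup K} (hJ : SI t J) (hne : ∃ d ∈ D, ¬ Cz J d)
    (hθ : ∀ a ∈ J, (∀ d ∈ D, a * d = d * a) → ∀ c c' : ↥(Subgroup.centralizer (D : Set K)), (c' : K) = c * a →
      (θ : ↥(Subgroup.centralizer (D : Set K)) → ℂ) c' = (θ : ↥(Subgroup.centralizer (D : Set K)) → ℂ) c) : False := by
  obtain ⟨w, -, -, ⟨d, hd, hdw⟩, -, hn, ho, hC⟩ := exists_wt hc.toCfg ht ht1 hJ hne
  refine hdw (hc.odd2 w hn ⟨2, ho⟩ ?_ d hd)
  intro c c' e
  have hcD : ∀ d ∈ D, (c : K) * d = d * c := fun d hd => (Subgroup.mem_centralizer_iff.1 c.2 d hd).symm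
  obtain ⟨h1, h2⟩ := hC c hcD
  refine hθ _ h1 h2 c c' ?_
  rw [e]
  group

end conf

/-! ## the exceptional groups -/

section Chev

open CoxeterSystem
open Cfsg.Lie Cfsg.Lie.ChevalleyDatum
open Cfsg.Agent.ChevalleyStructure Cfsg.Agent.ChevalleyStructure.Elts Cfsg.Agent.ChevalleyStructure.CoxeterGeom
  Cfsg.Agent.ChevalleyStructure.RootVec Cfsg.Agent.ChevalleyStructure.RootVecTab
  Cfsg.Agent.ChevalleyStructure.CoxeterGeomTypes
open Cfsg.Agent.Tits.Roots Cfsg.Agent.Nodes.Reps Cfsg.Agent.Nodes.BNOf Cfsg.Agent.Nodes.RGDChev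
  Cfsg.Agent.Nodes.Bruhat Cfsg.Agent.Nodes.RGDLib
open Cfsg.Agent.OddHalf.LongSL Cfsg.Agent.OddHalf.LongSL.Chev
open Cfsg.Agent.GenExc Cfsg.Agent.GenExc.Chev
open Cfsg.Agent.H557.LrSgn Cfsg.Agent.H557.LrTor Cfsg.Agent.H557.LrOrb Cfsg.Agent.H557.LrIso Cfsg.Agent.H557.LrChev
  Cfsg.Agent.H557.LrRho Cfsg.Agent.H557.LrData
open Cfsg.Agent.H392.KKL

section rho

variable {D : ChevalleyDatum} {l m : ℕ} {M : CoxeterMatrix (Fin l)} (hp : IsType D l M) {F : Type} [Field F]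
  {W : Type*} [Group W] (cs : CoxeterSystem M W) {f : Fin (m + 1) ↪ Fin l} {S Jc Js : List (Fin l)} {rho : ℕ}
  {i0 : Fin l} {ω : List (Fin l)} (H : RhoD D f S Jc Js rho i0 ω) [Fintype F] (p : ℕ) [Fact p.Prime] [CharP F p]
  (hZ : Subgroup.center ↥(D.group F) = ⊥)

include hp cs H p hZ in
/-- the classical involution from the data of the highest root, strong form -/
theorem si_rho (h2 : (2 : F) ≠ 0) (ho : ∃ r < D.nroots, evB D [i0] r = false) :
    SI (zS hp F [i0]) (phi hp F i0).range := by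
  have e0 : zS hp F [i0] = phi hp F i0 (-1) := by rw [zS_cons, zS_nil, mul_one]
  have h1 : phi hp F i0 (-1) ≠ 1 := by rw [← e0]; exact zS_ne_one hp h2 ho
  have hQ : Function.Injective (phi hp F i0) := inj_of_neg h2 h1
  rw [e0]
  refine ⟨F, inferInstance, inferInstance, phi hp F i0, h2, hQ, rfl, rfl, fun c hc => ?_⟩
  rw [← e0] at hc
  obtain ⟨k₀, hk₀, hz⟩ := H.exists_conj hp cs p hZ
  have ha : rep cs hp.isCartan (cs.wordProd ω) (sr i0) = vec D l rho := by rw [rep_word cs hp.isCartan, H.word]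
  have hc' : k₀ * c * k₀⁻¹ ∈ Subgroup.centralizer {y | ∃ T ∈ [S], y = zS hp F T} := by
    rw [set_eq, Subgroup.mem_centralizer_iff]
    intro y hy
    rw [Set.mem_singleton_iff] at hy
    rw [hy, ← hz]
    calc _ = k₀ * (zS hp F [i0] * c) * k₀⁻¹ := by group
      _ = _ := by rw [← hc]; group
  have h3 := act_cent hp cs p hQ h2 hk₀ [S] (by rw [ha]; exact comm_of_iso hp cs h2 [S] (H.iso hp cs))
    (by rw [ha]; exact stab_of_iso hp cs p h2 [S] (H.iso hp cs)) hc'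
  have e : k₀⁻¹ * (k₀ * c * k₀⁻¹) * k₀ = c := by group
  rwa [e] at h3

end rho

variable {F : Type} [Field F] [Fintype F]

theorem si_F4 (h2 : (2 : F) ≠ 0) : SI (zS isType_F4 F [3]) (phi isType_F4 F 3).range := by
  obtain ⟨p, hpp, hpc⟩ := exists_prime F
  have : Fact p.Prime := ⟨hpp⟩
  exact si_rho isType_F4 (CoxeterMatrix.F₄).toCoxeterSystem rhoF4 p (center_eq_bot (S1054.result _ (by simp))) h2
    (by decide +kernel)

theorem si_E6 (h2 : (2 : F) ≠ 0) : SI (zS isType_E6 F [1]) (phi isType_E6 F 1).range := by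
  obtain ⟨p, hpp, hpc⟩ := exists_prime F
  have : Fact p.Prime := ⟨hpp⟩
  exact si_rho isType_E6 (CoxeterMatrix.E₆).toCoxeterSystem rhoE6 p (center_eq_bot (S1054.result _ (by simp))) h2
    (by decide +kernel)

theorem si_E7 (h2 : (2 : F) ≠ 0) : SI (zS isType_E7 F [0]) (phi isType_E7 F 0).range := by
  obtain ⟨p, hpp, hpc⟩ := exists_prime F
  have : Fact p.Prime := ⟨hpp⟩
  exact si_rho isType_E7 (CoxeterMatrix.E₇).toCoxeterSystem rhoE7 p (center_eq_bot (S1054.result _ (by simp))) h2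
    (by decide +kernel)

theorem si_E8 (h2 : (2 : F) ≠ 0) : SI (zS isType_E8 F [7]) (phi isType_E8 F 7).range := by
  obtain ⟨p, hpp, hpc⟩ := exists_prime F
  have : Fact p.Prime := ⟨hpp⟩
  exact si_rho isType_E8 (CoxeterMatrix.E₈).toCoxeterSystem rhoE8 p (center_eq_bot (S1054.result _ (by simp))) h2
    (by decide +kernel)

end Chev

/-- `SI t (J t)` for all conjugates of `t₀`, `J` the equivariant function of `x2a_E8` etc. -/
theorem si_of_equiv {K : Type*} [Group K] {t₀ : K} {J₀ : Subgroup K} (h : SI t₀ J₀) {J : K → Subgroup K}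
    (hJ0 : J t₀ = J₀) (hJ : ∀ y t g : K, y * g * y⁻¹ ∈ J (y * t * y⁻¹) ↔ g ∈ J t) {t : K} (ht : IsConj t₀ t) :
    SI t (J t) := by
  obtain ⟨y, rfl⟩ := isConj_iff.1 ht
  have h1 : J (y * t₀ * y⁻¹) = J₀.map (MulAut.conj y).toMonoidHom := by
    ext g
    constructor
    · intro hg
      refine ⟨y⁻¹ * g * y, ?_, ?_⟩
      · rw [← hJ0]
        show y⁻¹ * g * y ∈ J t₀
        rw [← hJ y t₀]
        have e : y * (y⁻¹ * g * y) * y⁻¹ = g := by group
        rwa [e]
      · show y * (y⁻¹ * g * y) * y⁻¹ = g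
        group
    · rintro ⟨s, hs, rfl⟩
      show y * s * y⁻¹ ∈ J (y * t₀ * y⁻¹)
      rw [hJ, hJ0]
      exact hs
  rw [h1]
  exact h.conj y

/-- **`E₈(q)`** : the equivariant function `J` with `CI` and `SI` -/
theorem x2a_E8_strong {F : Type} [Field F] [Fintype F] (h2 : (2 : F) ≠ 0) :
    ∃ J : ↥(Cfsg.Lie.chevE8.group F) → Subgroup ↥(Cfsg.Lie.chevE8.group F),
    (∀ t, IsConj (Cfsg.Agent.GenExc.Chev.zS Cfsg.Agent.GenExc.Chev.isType_E8 F [7]) t →
      CI t (J t) ∧ SI t (J t)) ∧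
    ∀ y t g, y * g * y⁻¹ ∈ J (y * t * y⁻¹) ↔ g ∈ J t := by
  obtain ⟨J, h1, h3, h4⟩ := Cfsg.Agent.H392.KKL.x2a_E8 h2
  exact ⟨J, fun t ht => ⟨h3 t ht, si_of_equiv (si_E8 h2) h1 h4 ht⟩, h4⟩

end Cfsg.Agent.H750.KS
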